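import Mathlib
import Cfsg.Agent.Lib.Helper44.OElp.Defs

/-!
# OELP package [FIXE] (S5988): a good `j` gives an invariant elliptic `m`-space.
-/

set_option autoImplicit false
open scoped MatrixGroups
open Matrix

universe u

namespace Cfsg.Agent.Lib.Helper26.OElp

open Cfsg.Agent.Lib.Helper23.OHyp Cfsg.Agent.Lib.Helper44.OElp Module

theorem ordI_pos26 {q r : ℕ} (hr : r.Prime) (hq : ¬ r ∣ q) : 0 < ordI q r := by
  have : Fact r.Prime := ⟨hr⟩
  unfold ordI
  rw [orderOf_pos_iff]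
  have hne : ((q : ℕ) : ZMod r) ≠ 0 := by
    rw [Ne, ZMod.natCast_eq_zero_iff]
    exact hq
  exact isOfFinOrder_iff_pow_eq_one.mpr
    ⟨r - 1, Nat.sub_pos_of_lt hr.one_lt, ZMod.pow_card_sub_one_eq_one hne⟩

theorem cc_even26 (q r : ℕ) : Even (cc q r) := by
  unfold cc
  split_ifs with h
  · exact h
  · exact even_two_mul _

theorem cc_eq_of_even26 {q r : ℕ} (h : Even (ordI q r)) : cc q r = ordI q r := by
  unfold cc
  rw [if_pos h]

/-- subspaces of the fixed space are invariant -/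
theorem inv_of_le_fixSp {F : Type u} [Field F] {ι : Type} [Fintype ι] [DecidableEq ι]
    (x : Matrix ι ι F) (W₀ : Submodule F (ι → F)) (hW₀ : W₀ ≤ fixSp x) : Inv x W₀ := by
  rintro _ ⟨w, hw, rfl⟩
  have h2 : (Matrix.toLin' x - 1) w = 0 := LinearMap.mem_ker.1 (hW₀ hw)
  have h3 : Matrix.toLin' x w = w := by
    simpa [sub_eq_zero] using h2
  rw [h3]
  exact hw

theorem inv_sup {F : Type u} [Field F] {ι : Type} [Fintype ι] [DecidableEq ι]
    (x : Matrix ι ι F) (W₁ W₂ : Submodule F (ι → F)) (h1 : Inv x W₁) (h2 : Inv x W₂) :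
    Inv x (W₁ ⊔ W₂) := by
  unfold Cfsg.Agent.Lib.Helper23.OHyp.Inv at *
  rw [Submodule.map_sup]
  exact sup_le_sup h1 h2

theorem pkgFixE_of (hSp : PkgSplitE.{u}) (hDv : PkgDivE.{u}) (hSb : PkgSubE.{u})
    (hSm : PkgSumE.{u}) (hGe : PkgGeomE.{u}) : PkgFixE.{u} := by
  intro F _ _ ι _ _ Q r x hS hTop m j hm hcj hcjN hgood
  classical
  have hi0 : 0 < ordI (Fintype.card F) r := ordI_pos26 hS.prime hS.ndvd
  have hceven : Even (cc (Fintype.card F) r) := cc_even26 _ _
  obtain ⟨hNdC, hNdN, hPerp, hCompl, hInvN, -⟩ := hSp F ι Q r x hS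
  obtain ⟨WN, hWNle, hWNinv, hWNnd, hWNdim⟩ :=
    hSb F ι Q r x hS (movSp x) le_rfl hInvN hNdN j hcjN
  obtain ⟨-, hWNplus⟩ := hDv F ι Q r x hS WN hWNle hWNinv hWNnd
  rw [hWNdim] at hWNplus
  have hNdQ := hS.nondeg
  have hcjeven : Even (cc (Fintype.card F) r * j) := hceven.mul_right j
  have heeven : Even (m - cc (Fintype.card F) r * j) :=
    (Nat.even_sub hcj).2 ⟨fun _ => hcjeven, fun _ => hm⟩
  unfold Good at hgood
  rcases hgood with ⟨he0, heD⟩ | ⟨he0, hieven, hjodd⟩ | ⟨heD, hieven, hJj⟩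
  · -- 0 < e < D
    obtain ⟨W₀, hW₀le, hW₀nd, hW₀dim, hW₀plus⟩ :=
      hGe F ι Q hNdQ (fixSp x) hNdC (m - cc (Fintype.card F) r * j) (¬ Plus Q WN) heeven
        (by omega) (fun h => by omega)
    have hperp : Perp Q W₀ WN := fun u hu v hv => hPerp u (hW₀le hu) v (hWNle hv)
    obtain ⟨hnd, hdim, htype⟩ := hSm F ι Q hNdQ W₀ WN hW₀nd hWNnd hperp
    refine ⟨W₀ ⊔ WN, ⟨?_, hnd, ?_⟩, inv_sup x _ _ (inv_of_le_fixSp x W₀ hW₀le) hWNinv⟩
    · rw [hdim, hW₀dim, hWNdim]
      omega
    · intro hplus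
      have h1 := (htype (by rw [hW₀dim]; exact heeven) (by rw [hWNdim]; exact hcjeven)).1 hplus
      by_cases h : Plus Q WN
      · exact (hW₀plus.1 (h1.2 h)) h
      · exact h (h1.1 (hW₀plus.2 h))
  · -- e = 0, i even, j odd
    have hci : cc (Fintype.card F) r = ordI (Fintype.card F) r := cc_eq_of_even26 hieven
    refine ⟨WN, ⟨?_, hWNnd, ?_⟩, hWNinv⟩
    · rw [hWNdim]
      omega
    · intro hplus
      rcases hWNplus.1 hplus with h | h
      · exact (Nat.not_even_iff_odd.2 h) hieven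
      · rw [hci, Nat.mul_div_cancel_left j hi0] at h
        exact (Nat.not_even_iff_odd.2 hjodd) h
  · -- e = D
    have hci : cc (Fintype.card F) r = ordI (Fintype.card F) r := cc_eq_of_even26 hieven
    obtain ⟨hcN, hNplus⟩ := hDv F ι Q r x hS (movSp x) le_rfl hInvN hNdN
    obtain ⟨-, -, htop⟩ := hSm F ι Q hNdQ (fixSp x) (movSp x) hNdC hNdN hPerp
    have hDeven : Even (finrank F (fixSp x)) := by
      rw [← heD]
      exact heeven
    have hNeven : Even (finrank F (movSp x)) := by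
      obtain ⟨t, ht⟩ := hcN
      rw [ht]
      exact hceven.mul_right t
    have hCplus : Plus Q (fixSp x) ↔ Plus Q (movSp x) := by
      have h := htop hDeven hNeven
      rw [hCompl.sup_eq_top] at h
      exact h.1 hTop
    have hperp : Perp Q (fixSp x) WN := fun u hu v hv => hPerp u hu v (hWNle hv)
    obtain ⟨hnd, hdim, htype⟩ := hSm F ι Q hNdQ (fixSp x) WN hNdC hWNnd hperp
    refine ⟨fixSp x ⊔ WN, ⟨?_, hnd, ?_⟩, inv_sup x _ _ (inv_of_le_fixSp x _ le_rfl) hWNinv⟩
    · rw [hdim, hWNdim, ← heD]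
      omega
    · intro hplus
      have h1 := (htype hDeven (by rw [hWNdim]; exact hcjeven)).1 hplus
      have hWN' : Plus Q WN ↔ Even j := by
        rw [hWNplus, hci, Nat.mul_div_cancel_left j hi0]
        constructor
        · rintro (h | h)
          · exact absurd hieven (Nat.not_even_iff_odd.2 h)
          · exact h
        · exact Or.inr
      have hN' : Plus Q (movSp x) ↔
          Even (finrank F (movSp x) / cc (Fintype.card F) r) := by
        rw [hNplus, hci]
        constructor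
        · rintro (h | h)
          · exact absurd hieven (Nat.not_even_iff_odd.2 h)
          · exact h
        · exact Or.inr
      have hJj' : Even (finrank F (movSp x) / cc (Fintype.card F) r) ↔ Even j := by
        rw [← hN', ← hCplus, h1, hWN']
      rcases Nat.even_or_odd j with hj | hj
      · exact (Nat.not_even_iff_odd.2 hJj) ((hJj'.2 hj).add hj)
      · have hJ' : Odd (finrank F (movSp x) / cc (Fintype.card F) r) :=
          Nat.not_even_iff_odd.1 (fun h => (Nat.not_even_iff_odd.2 hj) (hJj'.1 h))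
        exact (Nat.not_even_iff_odd.2 hJj) (hJ'.add_odd hj)

end Cfsg.Agent.Lib.Helper26.OElp
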