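import Mathlib
import Cfsg.Agent.Lib.Helper44.OElp.Defs
import Cfsg.Agent.Lib.Helper26.OElp.FixE

/-!
# OELP package [CNTFIXE] (S5988): an invariant nondegenerate subspace of dimension `< c` is
fixed pointwise (port of helper23's OHYP `pkgCntFix_of` to `StdE`).
-/

set_option autoImplicit false
open scoped MatrixGroups
open Matrix

namespace Cfsg.Agent.Lib.Helper26.OElp

open Cfsg.Agent.Lib.Helper23.OHyp Cfsg.Agent.Lib.Helper44.OElp

universe u

theorem cc_pos26 {q r : ℕ} (hr : r.Prime) (hq : ¬ r ∣ q) : 0 < cc q r := by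
  have := ordI_pos26 hr hq
  unfold cc
  split_ifs <;> omega

theorem pkgCntFixE_of (hSplit : PkgSplitE.{u}) (hDiv : PkgDivE.{u}) : PkgCntFixE.{u} := by
  intro F _ _ ι _ _ Q r x hS W hWnd hWinv hlt
  obtain ⟨-, -, -, -, -, hWs⟩ := hSplit F ι Q r x hS
  obtain ⟨-, hW1nd, hW1inv, hsup, hdims⟩ := hWs W hWinv hWnd
  obtain ⟨⟨j, hj⟩, -⟩ := hDiv F ι Q r x hS (W ⊓ movSp x) inf_le_right hW1inv hW1nd
  have hcpos := cc_pos26 hS.prime hS.ndvd
  have hj0 : j = 0 := by
    by_contra hne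
    have : cc (Fintype.card F) r ≤ cc (Fintype.card F) r * j :=
      Nat.le_mul_of_pos_right _ (Nat.pos_of_ne_zero hne)
    omega
  have hbot : W ⊓ movSp x = ⊥ := Submodule.finrank_eq_zero.mp (by rw [hj, hj0, mul_zero])
  rw [hbot, sup_bot_eq] at hsup
  rw [← hsup]
  exact inf_le_right

end Cfsg.Agent.Lib.Helper26.OElp
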