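import Mathlib
import Cfsg.Agent.Lib.Helper44.OElp.Defs

/-!
# OELP package [CONGE] (S5988): fixed-point congruence for the elliptic `m`-spaces
(port of helper45's OHYP [CNTCONG] from hyperbolic to elliptic spaces).
-/

set_option autoImplicit false
open scoped MatrixGroups
open Matrix

namespace Cfsg.Agent.Lib.Helper26.OElp

open Cfsg.Agent.Lib.Helper23.OHyp Cfsg.Agent.Lib.Helper44.OElp

universe u

section

variable {F : Type u} [Field F] {ι : Type} [Fintype ι] [DecidableEq ι]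

theorem gl_inj (g : GL ι F) : Function.Injective (Matrix.toLin' (g : Matrix ι ι F)) := by
  intro v w h
  simp only [Matrix.toLin'_apply] at h
  have h2 := congrArg (fun z => ((g⁻¹ : GL ι F) : Matrix ι ι F) *ᵥ z) h
  simp only [Matrix.mulVec_mulVec] at h2
  rw [← Units.val_mul, inv_mul_cancel] at h2
  simpa using h2

theorem gl_finrank_map (g : GL ι F) (U : Submodule F (ι → F)) :
    Module.finrank F ↥(U.map (Matrix.toLin' (g : Matrix ι ι F))) = Module.finrank F ↥U :=
  (LinearEquiv.finrank_eq (Submodule.equivMapOfInjective _ (gl_inj g) U)).symm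

theorem gl_map_map_inv (g : GL ι F) (U : Submodule F (ι → F)) :
    (U.map (Matrix.toLin' (g : Matrix ι ι F))).map
      (Matrix.toLin' ((g⁻¹ : GL ι F) : Matrix ι ι F)) = U := by
  rw [← Submodule.map_comp, ← Matrix.toLin'_mul, ← Units.val_mul, inv_mul_cancel, Units.val_one,
    Matrix.toLin'_one]
  exact Submodule.map_id U

theorem ell_map_mem (Q : (ι → F) → F) (m : ℕ) (g : GL ι F) (hg : g ∈ Cfsg.isometryGroup F Q)
    (W : Submodule F (ι → F))
    (hW : Module.finrank F ↥W = m ∧ Cfsg.Geo.IsNondegenerateOn (QuadraticMap.polar Q) W ∧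
      ¬ Cfsg.Geo.IsPlusTypeOn Q W) :
    Module.finrank F ↥(W.map (Matrix.toLin' (g : Matrix ι ι F))) = m ∧
    Cfsg.Geo.IsNondegenerateOn (QuadraticMap.polar Q) (W.map (Matrix.toLin' (g : Matrix ι ι F))) ∧
    ¬ Cfsg.Geo.IsPlusTypeOn Q (W.map (Matrix.toLin' (g : Matrix ι ι F))) := by
  have hQ : ∀ v, Q ((g : Matrix ι ι F) *ᵥ v) = Q v := fun v => hg v v
  have hQi : ∀ v, Q (((g⁻¹ : GL ι F) : Matrix ι ι F) *ᵥ v) = Q v :=
    fun v => (inv_mem hg) v v
  have hpol : ∀ u v, QuadraticMap.polar Q ((g : Matrix ι ι F) *ᵥ u) ((g : Matrix ι ι F) *ᵥ v) =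
      QuadraticMap.polar Q u v := by
    intro u v
    unfold QuadraticMap.polar
    rw [← Matrix.mulVec_add, hQ, hQ, hQ]
  refine ⟨by rw [gl_finrank_map]; exact hW.1, ?_, ?_⟩
  · intro w hw hw0
    obtain ⟨w0, hw0W, rfl⟩ := hw
    have hne : w0 ≠ 0 := by
      rintro rfl
      exact hw0 (map_zero _)
    obtain ⟨⟨a, haW, ha⟩, ⟨b, hbW, hb⟩⟩ := hW.2.1 w0 hw0W hne
    refine ⟨⟨Matrix.toLin' (g : Matrix ι ι F) a, Submodule.mem_map_of_mem haW, ?_⟩,
      ⟨Matrix.toLin' (g : Matrix ι ι F) b, Submodule.mem_map_of_mem hbW, ?_⟩⟩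
    · rw [Matrix.toLin'_apply, Matrix.toLin'_apply, hpol]
      exact ha
    · rw [Matrix.toLin'_apply, Matrix.toLin'_apply, hpol]
      exact hb
  · rintro ⟨U, hUW, hUts, hUd⟩
    apply hW.2.2
    refine ⟨U.map (Matrix.toLin' ((g⁻¹ : GL ι F) : Matrix ι ι F)), ?_, ?_, ?_⟩
    · have h := Submodule.map_mono (f := Matrix.toLin' ((g⁻¹ : GL ι F) : Matrix ι ι F)) hUW
      rw [gl_map_map_inv] at h
      exact h
    · intro w hw
      obtain ⟨w0, hw0U, rfl⟩ := hw
      rw [Matrix.toLin'_apply, hQi]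
      exact hUts w0 hw0U
    · rw [gl_finrank_map, hUd, gl_finrank_map]

end

theorem pkgCongE : PkgCongE.{u} := by
  intro F _ _ ι _ _ Q m r hr x hx hxr
  classical
  have hrF : Fact r.Prime := ⟨hr⟩
  have hfinS : Finite (Submodule F (ι → F)) :=
    Finite.of_injective (fun W : Submodule F (ι → F) => (W : Set (ι → F))) SetLike.coe_injective
  have hfin : Finite (EllSp Q m) := inferInstance
  have hft : Fintype (EllSp Q m) := Fintype.ofFinite _
  obtain ⟨Φ, hΦ⟩ : ∃ Φ : (g : GL ι F) → g ∈ Cfsg.isometryGroup F Q → Function.End (EllSp Q m),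
      ∀ g hg W, (Φ g hg W).1 = W.1.map (Matrix.toLin' (g : Matrix ι ι F)) :=
    ⟨fun g hg W => ⟨W.1.map (Matrix.toLin' (g : Matrix ι ι F)), ell_map_mem Q m g hg W.1 W.2⟩,
      fun _ _ _ => rfl⟩
  have hpow : ∀ k : ℕ, (Φ x hx) ^ k = Φ (x ^ k) (pow_mem hx k) := by
    intro k
    induction k with
    | zero =>
      funext W
      apply Subtype.ext
      rw [hΦ]
      simp
      rfl
    | succ k ih =>
      rw [pow_succ, ih]
      funext W
      apply Subtype.ext
      show (Φ (x ^ k) (pow_mem hx k) (Φ x hx W)).1 = _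
      rw [hΦ, hΦ, hΦ, ← Submodule.map_comp, pow_succ, Units.val_mul, Matrix.toLin'_mul]
  have hf : (Φ x hx) ^ r ^ 1 = 1 := by
    rw [pow_one, hpow]
    funext W
    apply Subtype.ext
    rw [hΦ, hxr]
    simp
    rfl
  have key := Equiv.Perm.card_fixedPoints_modEq (f := Φ x hx) (p := r) (n := 1) hf
  rw [Fintype.card_eq_nat_card, Fintype.card_eq_nat_card] at key
  have hcongr : Nat.card ↥(Function.fixedPoints (Φ x hx)) =
      Nat.card {W : EllSp Q m // Inv (x : Matrix ι ι F) W.1} := by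
    apply Nat.card_congr
    apply Equiv.subtypeEquivRight
    intro W
    show Φ x hx W = W ↔ Submodule.map (Matrix.toLin' (x : Matrix ι ι F)) W.1 ≤ W.1
    constructor
    · intro h
      have := congrArg Subtype.val h
      rw [hΦ] at this
      exact le_of_eq this
    · intro h
      apply Subtype.ext
      rw [hΦ]
      apply Submodule.eq_of_le_of_finrank_eq h
      rw [(ell_map_mem Q m x hx W.1 W.2).1, W.2.1]
  rw [hcongr] at key
  exact key

end Cfsg.Agent.Lib.Helper26.OElp
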