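import Mathlib
import Cfsg.Agent.Lib.Helper44.OElp.Defs
import Cfsg.Agent.Lib.Helper26.OElp.CongE
import Cfsg.Agent.Lib.Helper61.OHyp.CntIn

/-!
# OELP package [CNTINE] (S5988): the number of elliptic `m`-spaces inside the fixed space is
prime to `r` (port of helper61's OHYP `pkgCntIn_of` to elliptic spaces and `StdE`).
-/

set_option autoImplicit false
open scoped MatrixGroups
open Matrix

namespace Cfsg.Agent.Lib.Helper26.OElp

open Cfsg.Agent.Lib.Helper23.OHyp Cfsg.Agent.Lib.Helper44.OElp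
open Cfsg.Agent.Lib.Helper61.OHyp (fixer polar_isom mem_map_gl)

universe u

section

variable {F : Type u} [Field F] {ι : Type} [Fintype ι] [DecidableEq ι]

/-- The image of an elliptic `m`-space under an isometry. -/
def mapEll {Q : (ι → F) → F} {m : ℕ} (g : GL ι F) (hg : g ∈ Cfsg.isometryGroup F Q)
    (W : EllSp Q m) : EllSp Q m :=
  ⟨W.1.map (Matrix.toLin' (g : Matrix ι ι F)), ell_map_mem Q m g hg W.1 W.2⟩

/-- The elliptic `m`-spaces inside the fixed space of `x`. -/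
abbrev EllIn (Q : (ι → F) → F) (x : Matrix ι ι F) (m : ℕ) : Type u :=
  {W : EllSp Q m // W.1 ≤ fixSp x}

/-- The action of the fixer on the elliptic `m`-spaces inside the fixed space. -/
@[reducible] def actE (Q : (ι → F) → F) (x : Matrix ι ι F) (m : ℕ)
    (hkeep : ∀ g ∈ fixer Q x, ∀ v ∈ fixSp x, (g : Matrix ι ι F) *ᵥ v ∈ fixSp x) :
    MulAction ↥(fixer Q x) (EllIn Q x m) where
  smul g W := ⟨mapEll g.1 g.2.1 W.1, by
    intro v hv
    obtain ⟨w, hw, rfl⟩ := mem_map_gl.mp hv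
    exact hkeep g.1 g.2 w (W.2 hw)⟩
  one_smul W := by
    apply Subtype.ext
    apply Subtype.ext
    show W.1.1.map (Matrix.toLin' (((1 : ↥(fixer Q x)) : GL ι F) : Matrix ι ι F)) = W.1.1
    rw [Subgroup.coe_one, Units.val_one, Matrix.toLin'_one, Submodule.map_id]
  mul_smul g h W := by
    apply Subtype.ext
    apply Subtype.ext
    show W.1.1.map (Matrix.toLin' (((g * h : ↥(fixer Q x)) : GL ι F) : Matrix ι ι F)) =
      (W.1.1.map (Matrix.toLin' ((h : GL ι F) : Matrix ι ι F))).map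
        (Matrix.toLin' ((g : GL ι F) : Matrix ι ι F))
    rw [Subgroup.coe_mul, Units.val_mul, Matrix.toLin'_mul, Submodule.map_comp]

end

/-- [CNTINE] -/
theorem pkgCntInE_of (hGeom : PkgGeomE.{u}) (hSplit : PkgSplitE.{u}) (hWitt : PkgCntWittE.{u})
    (hCauchy : PkgCntCauchyE.{u}) : PkgCntInE.{u} := by
  intro F _ _ ι _ _ Q r x hStd m hm hm2 hlt hltc
  obtain ⟨hNdFix, hNdMov, hPerp, hCompl, -, -⟩ := hSplit F ι Q r x hStd
  have hbil := hStd.nondeg.polar_bilinear
  -- the fixer preserves the fixed space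
  have hkeep : ∀ g ∈ fixer Q x, ∀ v ∈ fixSp x, (g : Matrix ι ι F) *ᵥ v ∈ fixSp x := by
    rintro g ⟨hg, hgfix⟩ v hv
    have htop : (g : Matrix ι ι F) *ᵥ v ∈ fixSp x ⊔ movSp x := by
      rw [hCompl.sup_eq_top]; exact Submodule.mem_top
    obtain ⟨a, ha, b, hb, hab⟩ := Submodule.mem_sup.mp htop
    have hb0 : b = 0 := by
      by_contra hb0
      obtain ⟨-, ⟨c, hc, hcb⟩⟩ := hNdMov b hb hb0
      apply hcb
      have h1 : QuadraticMap.polar Q ((g : Matrix ι ι F) *ᵥ v) c = 0 := by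
        have h2 := polar_isom hg v c
        rw [hgfix c hc] at h2
        rw [h2]
        exact hPerp v hv c hc
      rw [← hab, hbil.add_left, hPerp a ha c hc, zero_add] at h1
      exact h1
    rw [← hab, hb0, add_zero]
    exact ha
  let _inst := actE Q x m hkeep
  -- nonempty
  obtain ⟨W₀, hW₀C, hW₀Nd, hW₀dim, hW₀Plus⟩ :=
    hGeom F ι Q hStd.nondeg (fixSp x) hNdFix m False hm (by omega) (fun h => by omega)
  let y₀ : EllIn Q x m := ⟨⟨W₀, hW₀dim, hW₀Nd, fun h => hW₀Plus.mp h⟩, hW₀C⟩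
  -- transitivity
  have htrans : MulAction.IsPretransitive ↥(fixer Q x) (EllIn Q x m) := by
    refine ⟨fun a b => ?_⟩
    obtain ⟨g, hg, hgfix, hgmap⟩ := hWitt F ι Q r x hStd m hm a.1 b.1 a.2 b.2
    exact ⟨⟨g, hg, hgfix⟩, Subtype.ext (Subtype.ext hgmap)⟩
  have hdvd : Nat.card (EllIn Q x m) ∣ Nat.card ↥(fixer Q x) := by
    rw [← MulAction.index_stabilizer_of_transitive ↥(fixer Q x) y₀]
    exact Subgroup.index_dvd_card _
  intro hr
  have hr' : r ∣ Nat.card ↥(fixer Q x) := hr.trans hdvd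
  have : Fact r.Prime := ⟨hStd.prime⟩
  obtain ⟨g, hg⟩ := exists_prime_orderOf_dvd_card' r hr'
  have hpow : (g : GL ι F) ^ r = 1 := by
    rw [← Subgroup.coe_pow, ← hg, pow_orderOf_eq_one, Subgroup.coe_one]
  have h1 : (g : GL ι F) = 1 := hCauchy F ι Q r x hStd hltc g.1 g.2.1 g.2.2 hpow
  have h2 : g = 1 := Subtype.ext h1
  rw [h2, orderOf_one] at hg
  exact hStd.prime.one_lt.ne hg

end Cfsg.Agent.Lib.Helper26.OElp
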