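import Mathlib
import Cfsg.Agent.Lib.Helper44.OElp.Defs
import Cfsg.Agent.Lib.Helper1.OElp.SumE

/-!
# OELP (S5988): package [ELLISOE]

Two nondegenerate subspaces of the same even dimension which are both not of plus type are
isometric (any characteristic): both are isometric to the minus model `quadFormMinus m a c`
(`Helper1.OElp.model_of_nd`), since the plus model is of plus type (`plus_of_model`).
-/

set_option autoImplicit false

namespace Cfsg.Agent.Lib.Helper26.OElp

open Cfsg.Agent.Lib.Helper23.OHyp Cfsg.Agent.Lib.Helper44.OElp Module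

universe u

/-- [ELLISOE] two elliptic spaces of the same even dimension are isometric. -/
theorem pkgEllIsoE : PkgEllIsoE.{u} := by
  intro F _ _ ι _ _ Q hQ W W' hN hN' hdim hev hP hP'
  classical
  obtain ⟨a, c, hac⟩ := Cfsg.Agent.Lib.Helper85.OCls.pkgAniso (F := F)
  obtain ⟨f, hf⟩ := hev
  have hf1 : finrank F W = 2 * f := by omega
  have hf2 : finrank F W' = 2 * f := by omega
  rcases Cfsg.Agent.Lib.Helper1.OElp.model_of_nd Q hQ W hN f hf1 a c hac with
    ⟨φ, hφ⟩ | ⟨m₁, hm₁, φ₁, hφ₁⟩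
  · exact absurd (Cfsg.Agent.Lib.Helper1.OElp.plus_of_model Q W f hf1 φ hφ) hP
  rcases Cfsg.Agent.Lib.Helper1.OElp.model_of_nd Q hQ W' hN' f hf2 a c hac with
    ⟨φ, hφ⟩ | ⟨m₂, hm₂, φ₂, hφ₂⟩
  · exact absurd (Cfsg.Agent.Lib.Helper1.OElp.plus_of_model Q W' f hf2 φ hφ) hP'
  have hmm : m₁ = m₂ := by omega
  subst hmm
  refine ⟨φ₁.trans φ₂.symm, fun w => ?_⟩
  have h1 := hφ₁ w
  have h2 := hφ₂ (φ₂.symm (φ₁ w))
  rw [LinearEquiv.apply_symm_apply] at h2
  rw [← h1]
  exact h2.symm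

end Cfsg.Agent.Lib.Helper26.OElp
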