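import Mathlib
import Cfsg.Agent.Lib.Helper44.OElp.Defs

/-!
# OELP package [RED] (S5988): reduction from non-scalar elements of `Ω` with scalar `r`-th power
to isometries of order `r`.
-/

set_option autoImplicit false
open scoped MatrixGroups
open Matrix

universe u

namespace Cfsg.Agent.Lib.Helper26.OElp

open Cfsg.Agent.Lib.Helper23.OHyp Cfsg.Agent.Lib.Helper44.OElp

/-- a scalar isometry of the plus form has square `1` -/
theorem scal_sq {F : Type u} [Field F] (d : ℕ) (hd : 0 < d) (z : F)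
    (h : ∀ v : Fin d ⊕ Fin d → F, Cfsg.quadFormPlus d F (z • v) = Cfsg.quadFormPlus d F v) :
    z * z = 1 := by
  let i0 : Fin d := ⟨0, hd⟩
  let v : Fin d ⊕ Fin d → F :=
    Sum.elim (fun i => if i = i0 then (1 : F) else 0) (fun i => if i = i0 then (1 : F) else 0)
  have hv : Cfsg.quadFormPlus d F v = 1 := by simp [Cfsg.quadFormPlus, v]
  have h2 : Cfsg.quadFormPlus d F (z • v) = z * z := by simp [Cfsg.quadFormPlus, v]
  rw [← h2, h v, hv]

theorem pkgRed_of (hO : PkgOddOmegaE.{u}) (hP : PkgPlusQE.{u}) : PkgRed.{u} := by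
  intro F _ _ d m r hd hr hr2
  have hQ := (hP F d).1
  have hd0 : 0 < d := by omega
  have hrodd : Odd r := hr.odd_of_ne_two hr2
  have : Fact r.Prime := ⟨hr⟩
  constructor
  · intro hAll x hx hord
    apply hAll x
    · apply hO F (Fin d ⊕ Fin d) _ hQ _ x hx (by rw [hord]; exact hrodd)
      intro _
      right
      simp only [Fintype.card_sum, Fintype.card_fin]
      omega
    · refine ⟨1, ?_⟩
      rw [← hord, pow_orderOf_eq_one, one_smul]
      rfl
    · intro z hz
      have hiso : ∀ v, Cfsg.quadFormPlus d F (z • v) = Cfsg.quadFormPlus d F v := by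
        intro v
        have h1 : Cfsg.quadFormPlus d F ((x : Matrix (Fin d ⊕ Fin d) (Fin d ⊕ Fin d) F) *ᵥ v)
            = Cfsg.quadFormPlus d F v := hx v v
        have h3 : (x : Matrix (Fin d ⊕ Fin d) (Fin d ⊕ Fin d) F) *ᵥ v = z • v := by
          rw [hz, Matrix.smul_mulVec, Matrix.one_mulVec]
        rw [← h3]
        exact h1
      have hzz := scal_sq d hd0 z hiso
      have hx2 : x ^ 2 = 1 := by
        apply Units.ext
        rw [Units.val_pow_eq_pow_val, hz, Units.val_one, pow_two, Matrix.smul_mul,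
          Matrix.mul_smul, mul_one, smul_smul, hzz, one_smul]
      have hdvd : r ∣ 2 := by
        rw [← hord]
        exact orderOf_dvd_of_pow_eq_one hx2
      have h1 := Nat.le_of_dvd (by norm_num) hdvd
      have h2 := hr.two_le
      omega
  · intro hIso x hx hsc hns
    obtain ⟨z, hz⟩ := hsc
    have hxi : x ∈ Cfsg.isometryGroup F (Cfsg.quadFormPlus d F) := by
      obtain ⟨y, _, rfl⟩ := Subgroup.mem_map.1 hx
      exact y.2
    have hzz : z * z = 1 := by
      apply scal_sq d hd0 z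
      intro v
      have h1 : Cfsg.quadFormPlus d F
          (((x ^ r : GL (Fin d ⊕ Fin d) F) : Matrix (Fin d ⊕ Fin d) (Fin d ⊕ Fin d) F) *ᵥ v)
          = Cfsg.quadFormPlus d F v := (Subgroup.pow_mem _ hxi r) v v
      have h3 : ((x ^ r : GL (Fin d ⊕ Fin d) F) : Matrix (Fin d ⊕ Fin d) (Fin d ⊕ Fin d) F) *ᵥ v
          = z • v := by
        rw [hz, Matrix.smul_mulVec, Matrix.one_mulVec]
      rw [← h3]
      exact h1
    have hone : (z • (1 : Matrix (Fin d ⊕ Fin d) (Fin d ⊕ Fin d) F)) * (z • 1) = 1 := by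
      rw [Matrix.smul_mul, Matrix.mul_smul, mul_one, smul_smul, hzz, one_smul]
    let s : GL (Fin d ⊕ Fin d) F := ⟨z • 1, z • 1, hone, hone⟩
    have hs : s ∈ Cfsg.isometryGroup F (Cfsg.quadFormPlus d F) := by
      intro u v
      show Cfsg.quadFormPlus d F ((z • (1 : Matrix (Fin d ⊕ Fin d) (Fin d ⊕ Fin d) F)) *ᵥ u)
        = Cfsg.quadFormPlus d F u
      rw [Matrix.smul_mulVec, Matrix.one_mulVec, hQ.smul, pow_two, hzz, one_mul]
    have hsx : ((s * x : GL (Fin d ⊕ Fin d) F) : Matrix (Fin d ⊕ Fin d) (Fin d ⊕ Fin d) F)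
        = z • (x : Matrix (Fin d ⊕ Fin d) (Fin d ⊕ Fin d) F) := by
      rw [Units.val_mul]
      show (z • (1 : Matrix (Fin d ⊕ Fin d) (Fin d ⊕ Fin d) F)) * _ = _
      rw [Matrix.smul_mul, one_mul]
    have hpow : (s * x) ^ r = 1 := by
      apply Units.ext
      rw [Units.val_pow_eq_pow_val, hsx, smul_pow, ← Units.val_pow_eq_pow_val, hz, smul_smul,
        Units.val_one]
      obtain ⟨k, hk⟩ := hrodd
      have : z ^ r * z = 1 := by
        rw [← pow_succ, hk, show 2 * k + 1 + 1 = 2 * (k + 1) by ring, pow_mul, pow_two, hzz,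
          one_pow]
      rw [this, one_smul]
    have hne : s * x ≠ 1 := by
      intro h
      apply hns z
      have h1 : z • (x : Matrix (Fin d ⊕ Fin d) (Fin d ⊕ Fin d) F) = 1 := by
        rw [← hsx, h, Units.val_one]
      calc (x : Matrix (Fin d ⊕ Fin d) (Fin d ⊕ Fin d) F)
          = (z * z) • (x : Matrix (Fin d ⊕ Fin d) (Fin d ⊕ Fin d) F) := by rw [hzz, one_smul]
        _ = z • (z • (x : Matrix (Fin d ⊕ Fin d) (Fin d ⊕ Fin d) F)) := by rw [smul_smul]
        _ = z • 1 := by rw [h1]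
    have hord : orderOf (s * x) = r := orderOf_eq_prime hpow hne
    obtain ⟨W, hW, hinv⟩ := hIso (s * x) (Subgroup.mul_mem _ hs hxi) hord
    refine ⟨W, hW, ?_⟩
    rintro _ ⟨w, hw, rfl⟩
    have h1 : Matrix.toLin' ((s * x : GL (Fin d ⊕ Fin d) F) :
        Matrix (Fin d ⊕ Fin d) (Fin d ⊕ Fin d) F) w ∈ W := hinv ⟨w, hw, rfl⟩
    rw [hsx] at h1
    have h2 : Matrix.toLin' (x : Matrix (Fin d ⊕ Fin d) (Fin d ⊕ Fin d) F) w
        = z • (Matrix.toLin' (z • (x : Matrix (Fin d ⊕ Fin d) (Fin d ⊕ Fin d) F)) w) := by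
      rw [Matrix.toLin'_apply, Matrix.toLin'_apply, Matrix.smul_mulVec, smul_smul, hzz, one_smul]
    rw [h2]
    exact W.smul_mem z h1

end Cfsg.Agent.Lib.Helper26.OElp
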